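import Mathlib
import Cfsg.Agent.Lib.Helper81.CS3.NGDefs

/-!
# CS3 (S4284), part NG, package [F4]

`w` an `r`-element of class size `m n`, `y ∈ C(w)` an `r'`-element: `C(w) ≤ C(y)`.
-/

set_option autoImplicit false

namespace Cfsg.Agent.Lib.Helper88.CS3

open Cfsg.Agent.Lib.Helper81.CS3

universe u

/-- membership in the centralizer of an element -/
theorem mem_cent_iff {G : Type u} [Group G] {g x : G} :
    g ∈ Subgroup.centralizer ({x} : Set G) ↔ Commute g x := by
  rw [Subgroup.mem_centralizer_singleton_iff]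
  exact Iff.rfl

/-- every class index is `1`, `m` or `m * n` -/
theorem hyp_idx_mem {G : Type u} [Group G] {m n : ℕ} (hyp : Hyp G m n) (x : G) :
    idx x = 1 ∨ idx x = m ∨ idx x = m * n := by
  have h1 : idx x ∈ Set.range (fun x : G => (Subgroup.centralizer ({x} : Set G)).index) :=
    ⟨x, rfl⟩
  rw [hyp.2.2.2.2] at h1
  simpa using h1

/-- a factor of a product of commuting elements of coprime orders is a power of the product -/
theorem exists_pow_mul_eq_left {G : Type u} [Group G] {x y : G} (hc : Commute x y)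
    (hco : (orderOf x).Coprime (orderOf y)) : ∃ k : ℕ, (x * y) ^ k = x := by
  obtain ⟨t, ht⟩ := exists_pow_eq_self_of_coprime (x := x) (n := orderOf y) hco.symm
  refine ⟨orderOf y * t, ?_⟩
  rw [pow_mul, hc.mul_pow, pow_orderOf_eq_one, mul_one, ht]

/-- the other factor -/
theorem exists_pow_mul_eq_right {G : Type u} [Group G] {x y : G} (hc : Commute x y)
    (hco : (orderOf x).Coprime (orderOf y)) : ∃ k : ℕ, (x * y) ^ k = y := by
  obtain ⟨k, hk⟩ := exists_pow_mul_eq_left hc.symm hco.symm
  exact ⟨k, by rw [hc.eq]; exact hk⟩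

/-- `C(x y) ≤ C(x)` for commuting `x`, `y` of coprime orders -/
theorem cent_mul_le_left {G : Type u} [Group G] {x y : G} (hc : Commute x y)
    (hco : (orderOf x).Coprime (orderOf y)) :
    Subgroup.centralizer ({x * y} : Set G) ≤ Subgroup.centralizer ({x} : Set G) := by
  obtain ⟨k, hk⟩ := exists_pow_mul_eq_left hc hco
  intro z hz
  rw [mem_cent_iff] at hz ⊢
  have h1 := hz.pow_right k
  rwa [hk] at h1

/-- `C(x y) ≤ C(y)` for commuting `x`, `y` of coprime orders -/
theorem cent_mul_le_right {G : Type u} [Group G] {x y : G} (hc : Commute x y)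
    (hco : (orderOf x).Coprime (orderOf y)) :
    Subgroup.centralizer ({x * y} : Set G) ≤ Subgroup.centralizer ({y} : Set G) := by
  obtain ⟨k, hk⟩ := exists_pow_mul_eq_right hc hco
  intro z hz
  rw [mem_cent_iff] at hz ⊢
  have h1 := hz.pow_right k
  rwa [hk] at h1

/-- **[F4]** -/
theorem pkgF4 : PkgF4.{u} := by
  intro G _ _ m n hyp r w y hr hw hidx hc hco g hg
  obtain ⟨k, hk⟩ := hw
  have hm1 : 1 < m := hyp.2.1
  have hn1 : 1 < n := hyp.2.2.1
  have hcop : (orderOf w).Coprime (orderOf y) := by
    rw [hk]; exact Nat.Coprime.pow_left k hco.symm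
  have hle := cent_mul_le_left hc hcop
  have hdvd : idx w ∣ idx (w * y) := Subgroup.index_dvd_of_le hle
  have h4 : 2 * 2 ≤ m * n := Nat.mul_le_mul hm1 hn1
  have h5 : m * 2 ≤ m * n := Nat.mul_le_mul_left m hn1
  have hwy : idx (w * y) = m * n := by
    rcases hyp_idx_mem hyp (w * y) with h | h | h
    · rw [h, hidx] at hdvd
      have := Nat.le_of_dvd one_pos hdvd
      omega
    · rw [h, hidx] at hdvd
      have := Nat.le_of_dvd (by omega) hdvd
      omega
    · exact h
  have hrel : (Subgroup.centralizer ({w * y} : Set G)).relIndex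
      (Subgroup.centralizer ({w} : Set G)) = 1 := by
    have h1 := Subgroup.relIndex_mul_index hle
    have h2 : (Subgroup.centralizer ({w} : Set G)).index = m * n := hidx
    have h3 : (Subgroup.centralizer ({w * y} : Set G)).index = m * n := hwy
    rw [h2, h3] at h1
    have hpos : 0 < m * n := by omega
    exact Nat.eq_of_mul_eq_mul_right hpos (by rw [h1, one_mul])
  have hge := Subgroup.relIndex_eq_one.mp hrel
  have hg' : g ∈ Subgroup.centralizer ({y} : Set G) :=
    cent_mul_le_right hc hcop (hge (mem_cent_iff.mpr hg))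
  exact mem_cent_iff.mp hg'

end Cfsg.Agent.Lib.Helper88.CS3
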